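-- helper94: project PG (S2474, helper8), package [LEVEL]: the number of solutions of
-- `quadFormOdd n v = c`, `c ≠ 0`, over a finite field of odd order.
import Mathlib
import Cfsg.Agent.Lib.Helper8.PG.Defs
import Cfsg.Agent.Lib.Helper4.OCls.Zeros

set_option autoImplicit false

universe u

namespace Cfsg.Agent.Lib.Helper94.PG

open Cfsg.Agent.Lib.Helper8.PG

theorem card_sub {α : Type*} [Fintype α] (p : α → Prop) [DecidablePred p] :
    Nat.card {x // p x} = ∑ x : α, if p x then 1 else 0 := by
  rw [Nat.card_eq_fintype_card, Fintype.card_subtype, Finset.card_filter]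

theorem sum_ite_const {α : Type*} [Fintype α] (p : α → Prop) [DecidablePred p] (X Y : ℤ) :
    ∑ x : α, (if p x then X else Y) =
      ((Finset.univ.filter p).card : ℤ) * X +
        ((Fintype.card α : ℤ) - ((Finset.univ.filter p).card : ℤ)) * Y := by
  rw [Finset.sum_ite, Finset.sum_const, Finset.sum_const, nsmul_eq_mul, nsmul_eq_mul]
  have h := Finset.card_filter_add_card_filter_not (s := (Finset.univ : Finset α)) p
  rw [Finset.card_univ] at h
  have h' : ((Finset.univ.filter (fun x => ¬ p x)).card : ℤ) =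
      (Fintype.card α : ℤ) - ((Finset.univ.filter p).card : ℤ) := by
    rw [← h]
    push_cast
    ring
  rw [h']

section

open Classical

variable {F : Type u} [Field F] [Fintype F]

/-- number of solutions of `quadFormPlus n w = a`. -/
noncomputable def lv (n : ℕ) (a : F) : ℕ :=
  ∑ w : Fin n ⊕ Fin n → F, if Cfsg.quadFormPlus n F w = a then 1 else 0

/-- scaling the first half of the coordinates. -/
def scaleEquiv (n : ℕ) (t : F) (ht : t ≠ 0) : (Fin n ⊕ Fin n → F) ≃ (Fin n ⊕ Fin n → F) where
  toFun w := Sum.elim (fun i => t * w (Sum.inl i)) (fun i => w (Sum.inr i))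
  invFun w := Sum.elim (fun i => t⁻¹ * w (Sum.inl i)) (fun i => w (Sum.inr i))
  left_inv w := by
    funext j
    rcases j with i | i
    · simp [ht]
    · simp
  right_inv w := by
    funext j
    rcases j with i | i
    · simp [ht]
    · simp

omit [Fintype F] in
lemma plus_scale (n : ℕ) (t : F) (ht : t ≠ 0) (w : Fin n ⊕ Fin n → F) :
    Cfsg.quadFormPlus n F (scaleEquiv n t ht w) = t * Cfsg.quadFormPlus n F w := by
  unfold Cfsg.quadFormPlus scaleEquiv
  simp only [Equiv.coe_fn_mk, Sum.elim_inl, Sum.elim_inr]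
  rw [Finset.mul_sum]
  apply Finset.sum_congr rfl
  intro i _
  ring

lemma lv_eq (n : ℕ) (a a' : F) (ha : a ≠ 0) (ha' : a' ≠ 0) : lv n a = lv n a' := by
  unfold lv
  have ht : a' / a ≠ 0 := div_ne_zero ha' ha
  apply Fintype.sum_equiv (scaleEquiv n (a' / a) ht)
  intro w
  rw [plus_scale]
  have hiff : (Cfsg.quadFormPlus n F w = a) ↔ (a' / a * Cfsg.quadFormPlus n F w = a') := by
    constructor
    · intro h
      rw [h]
      field_simp
    · intro h
      have h2 : a' / a * Cfsg.quadFormPlus n F w = a' / a * a := by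
        rw [h]
        field_simp
      exact mul_left_cancel₀ ht h2
  by_cases h : Cfsg.quadFormPlus n F w = a
  · rw [if_pos h, if_pos (hiff.mp h)]
  · rw [if_neg h, if_neg (fun h' => h (hiff.mpr h'))]

lemma sum_lv (n : ℕ) : ∑ a : F, lv n a = Fintype.card F ^ (2 * n) := by
  unfold lv
  rw [Finset.sum_comm]
  have h1 : ∀ w : Fin n ⊕ Fin n → F,
      (∑ a : F, if Cfsg.quadFormPlus n F w = a then 1 else 0) = 1 := by
    intro w
    rw [Finset.sum_ite_eq]
    simp
  simp only [h1]
  rw [Finset.sum_const, Finset.card_univ, smul_eq_mul, mul_one, Fintype.card_fun,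
    Fintype.card_sum, Fintype.card_fin, two_mul]

lemma lv_zero (n : ℕ) :
    (Fintype.card F : ℤ) * (lv n (0 : F) : ℤ) =
      (Fintype.card F : ℤ) ^ (2 * n) +
        ((Fintype.card F : ℤ) ^ (n + 1) - (Fintype.card F : ℤ) ^ n) := by
  have h : Cfsg.Agent.Lib.Helper14.OCls.PkgZerosPlus.{u} :=
    Cfsg.Agent.Lib.Helper4.OCls.pkgZerosPlus
  unfold Cfsg.Agent.Lib.Helper14.OCls.PkgZerosPlus at h
  have h2 := @h F _ _ n
  rw [card_sub] at h2
  exact h2

/-- splitting off the first coordinate. -/
def splitEquiv (n : ℕ) : (OI n → F) ≃ F × (Fin n ⊕ Fin n → F) where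
  toFun v := (v (Sum.inl ()), fun j => v (Sum.inr j))
  invFun z := Sum.elim (fun _ => z.1) z.2
  left_inv v := by
    funext j
    rcases j with u | j
    · rfl
    · rfl
  right_inv z := rfl

omit [Fintype F] in
lemma odd_split (n : ℕ) (z : F × (Fin n ⊕ Fin n → F)) :
    Cfsg.quadFormOdd n F ((splitEquiv n).symm z) = z.1 ^ 2 + Cfsg.quadFormPlus n F z.2 := rfl

/-- the level set of the odd form, fibred over the first coordinate. -/
lemma card_level (n : ℕ) (c : F) :
    Nat.card {v : OI n → F // Cfsg.quadFormOdd n F v = c} =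
      ∑ x0 : F, if x0 ^ 2 = c then lv n (0 : F) else lv n (1 : F) := by
  rw [card_sub, ← Equiv.sum_comp (splitEquiv n).symm, Fintype.sum_prod_type]
  apply Finset.sum_congr rfl
  intro x0 _
  have h1 : (∑ w : Fin n ⊕ Fin n → F,
      if Cfsg.quadFormOdd n F ((splitEquiv n).symm (x0, w)) = c then 1 else 0) =
      lv n (c - x0 ^ 2) := by
    unfold lv
    apply Finset.sum_congr rfl
    intro w _
    rw [odd_split]
    have hiff : (x0 ^ 2 + Cfsg.quadFormPlus n F w = c) ↔
        (Cfsg.quadFormPlus n F w = c - x0 ^ 2) := by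
      constructor
      · intro h
        rw [← h]
        ring
      · intro h
        rw [h]
        ring
    by_cases h : x0 ^ 2 + Cfsg.quadFormPlus n F w = c
    · rw [if_pos h, if_pos (hiff.mp h)]
    · rw [if_neg h, if_neg (fun h' => h (hiff.mpr h'))]
  rw [h1]
  by_cases h : x0 ^ 2 = c
  · rw [if_pos h, h, sub_self]
  · rw [if_neg h]
    apply lv_eq
    · intro h0
      apply h
      rw [sub_eq_zero] at h0
      exact h0.symm
    · exact one_ne_zero

/-- `Z + (q - 1) L = q^(2n)`. -/
lemma lv_total (n : ℕ) :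
    (lv n (0 : F) : ℤ) + ((Fintype.card F : ℤ) - 1) * (lv n (1 : F) : ℤ) =
      (Fintype.card F : ℤ) ^ (2 * n) := by
  have h1 : ∑ a : F, lv n a = ∑ a : F, if a = 0 then lv n (0 : F) else lv n (1 : F) := by
    apply Finset.sum_congr rfl
    intro a _
    by_cases h : a = 0
    · rw [if_pos h, h]
    · rw [if_neg h]
      exact lv_eq n a 1 h one_ne_zero
  have h2 := sum_lv (F := F) n
  rw [h1] at h2
  have h3 : ((∑ a : F, if a = 0 then lv n (0 : F) else lv n (1 : F) : ℕ) : ℤ) =
      (Fintype.card F : ℤ) ^ (2 * n) := by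
    rw [h2]
    push_cast
    rfl
  rw [Nat.cast_sum] at h3
  have h4 : ∀ a : F, (((if a = 0 then lv n (0 : F) else lv n (1 : F)) : ℕ) : ℤ) =
      if a = 0 then (lv n (0 : F) : ℤ) else (lv n (1 : F) : ℤ) := by
    intro a
    split_ifs <;> rfl
  simp only [h4] at h3
  rw [sum_ite_const] at h3
  have h5 : (Finset.univ.filter (fun a : F => a = 0)).card = 1 := by
    rw [Finset.filter_eq' Finset.univ (0 : F), if_pos (Finset.mem_univ _), Finset.card_singleton]
  rw [h5] at h3
  rw [← h3]
  push_cast
  ring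

end

/-- **[LEVEL]** -/
theorem pkgLevel : PkgLevel.{u} := by
  classical
  intro F _ _ hodd n c hc
  have h2 : (2 : F) ≠ 0 := by
    apply Ring.two_ne_zero
    intro hchar
    have := FiniteField.even_card_of_char_two hchar
    rcases hodd with ⟨k, hk⟩
    omega
  have hq1 : (1 : ℤ) < (Fintype.card F : ℤ) := by
    exact_mod_cast Fintype.one_lt_card
  have hZ := lv_zero (F := F) n
  have hT := lv_total (F := F) n
  rw [pow_succ] at hZ
  have hN : (Nat.card {v : OI n → F // Cfsg.quadFormOdd n F v = c} : ℤ) =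
      ((Finset.univ.filter (fun x0 : F => x0 ^ 2 = c)).card : ℤ) * (lv n (0 : F) : ℤ) +
        ((Fintype.card F : ℤ) - ((Finset.univ.filter (fun x0 : F => x0 ^ 2 = c)).card : ℤ)) *
          (lv n (1 : F) : ℤ) := by
    rw [card_level, Nat.cast_sum]
    have h4 : ∀ x0 : F, (((if x0 ^ 2 = c then lv n (0 : F) else lv n (1 : F)) : ℕ) : ℤ) =
        if x0 ^ 2 = c then (lv n (0 : F) : ℤ) else (lv n (1 : F) : ℤ) := by
      intro a
      split_ifs <;> rfl
    simp only [h4]
    rw [sum_ite_const]
  constructor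
  · rintro ⟨r, hr⟩
    have hr0 : r ≠ 0 := by
      rintro rfl
      rw [mul_zero] at hr
      exact hc hr
    have hne : r ≠ -r := by
      intro h
      have h3 : (2 : F) * r = 0 := by linear_combination h
      rcases mul_eq_zero.mp h3 with h4 | h4
      · exact h2 h4
      · exact hr0 h4
    have hS : (Finset.univ.filter (fun x0 : F => x0 ^ 2 = c)) = {r, -r} := by
      ext x
      simp only [Finset.mem_filter, Finset.mem_univ, true_and, Finset.mem_insert,
        Finset.mem_singleton]
      rw [hr, ← pow_two, sq_eq_sq_iff_eq_or_eq_neg]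
    rw [hS, Finset.card_pair hne] at hN
    have key : (Fintype.card F : ℤ) * ((Fintype.card F : ℤ) - 1) *
        ((Nat.card {v : OI n → F // Cfsg.quadFormOdd n F v = c} : ℤ) -
          ((Fintype.card F : ℤ) ^ (2 * n) + (Fintype.card F : ℤ) ^ n)) = 0 := by
      push_cast at hN
      linear_combination ((Fintype.card F : ℤ) * ((Fintype.card F : ℤ) - 1)) * hN +
        (Fintype.card F : ℤ) * hZ + ((Fintype.card F : ℤ) * ((Fintype.card F : ℤ) - 2)) * hT
    rcases mul_eq_zero.mp key with h5 | h5
    · rcases mul_eq_zero.mp h5 with h6 | h6 <;> omega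
    · linarith
  · intro hns
    have hS : (Finset.univ.filter (fun x0 : F => x0 ^ 2 = c)) = ∅ := by
      ext x
      simp only [Finset.mem_filter, Finset.mem_univ, true_and, Finset.notMem_empty, iff_false]
      intro h
      exact hns ⟨x, by rw [← h, pow_two]⟩
    rw [hS, Finset.card_empty] at hN
    have key : ((Fintype.card F : ℤ) - 1) *
        ((Nat.card {v : OI n → F // Cfsg.quadFormOdd n F v = c} : ℤ) -
          ((Fintype.card F : ℤ) ^ (2 * n) - (Fintype.card F : ℤ) ^ n)) = 0 := by
      push_cast at hN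
      linear_combination ((Fintype.card F : ℤ) - 1) * hN - hZ + (Fintype.card F : ℤ) * hT
    rcases mul_eq_zero.mp key with h5 | h5
    · omega
    · linarith

end Cfsg.Agent.Lib.Helper94.PG
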